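import Cfsg.Agent.Lib.Helper94.SpRow.Base
import Cfsg.Agent.Lib.Helper72.SURows.TVc

set_option autoImplicit false

namespace Cfsg.Agent.Lib.Helper72.SpRow

open Cfsg Cfsg.Geo Matrix Cfsg.Agent.Lib.Helper94.SpRow Cfsg.Agent.Lib.Helper5.SUAsch
  Cfsg.Agent.Lib.Helper72.SURows
open scoped MatrixGroups

variable {F : Type*} [Field F] {m : ℕ}

/-- the functional `x ↦ c * f x v` -/
def sfL (v : Fin m ⊕ Fin m → F) (c : F) : (Fin m ⊕ Fin m → F) →ₗ[F] F where
  toFun x := c * sympForm m F x v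
  map_add' x y := by rw [sf_add_left, mul_add]
  map_smul' a x := by rw [sf_smul_left, RingHom.id_apply, smul_eq_mul]; ring

/-- symplectic transvections are transvection-like -/
theorem isTv_tvG {v : Fin m ⊕ Fin m → F} (hv : v ≠ 0) {c : F} (hc : c ≠ 0) : IsTv (tvG v c) := by
  refine ⟨sfL v c, v, hv, ?_, fun x => ?_⟩
  · intro h0
    obtain ⟨x, hx⟩ := sf_exists_ne hv
    have := LinearMap.congr_fun h0 x
    exact mul_ne_zero hc hx this
  · rw [tvG_mulVec]; rfl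

/-- a non-zero vector -/
theorem exists_vec_ne_zero (hm : 1 ≤ m) : ∃ v : Fin m ⊕ Fin m → F, v ≠ 0 := by
  refine ⟨Pi.single (Sum.inl ⟨0, by omega⟩) 1, fun h => ?_⟩
  have := congrFun h (Sum.inl ⟨0, by omega⟩)
  simp at this

/-- TVc with `2 ≤ r` -/
theorem tv_not_mem_field' {ι : Type} [Fintype ι] [DecidableEq ι] (hι : 3 ≤ Fintype.card ι) {r : ℕ}
    (hr : 2 ≤ r) (K : Subalgebra F (Matrix ι ι F)) (hK : IsFieldSubalgebra r K) (g : GL ι F)
    (hg : IsTv g) : g ∉ subalgebraNormalizer K := by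
  intro hmem
  have hne : Nonempty ι := Fintype.card_pos_iff.1 (by omega)
  obtain ⟨φ, a, ha, hφ, hgx⟩ := hg
  have h2 : ((g⁻¹ : GL ι F) : Matrix ι ι F) * (g : Matrix ι ι F) = 1 := by
    rw [← Units.val_mul, inv_mul_cancel, Units.val_one]
  have hcomm : ∀ k ∈ K, (g : Matrix ι ι F) * k = k * (g : Matrix ι ι F) := by
    intro k hk
    set k' := (g : Matrix ι ι F) * k * ((g⁻¹ : GL ι F) : Matrix ι ι F) with hk'
    have hk'K : k' ∈ K := (hmem k).1 hk
    have hrel : k' * (g : Matrix ι ι F) = (g : Matrix ι ι F) * k := by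
      rw [hk', mul_assoc, h2, mul_one]
    let L : (ι → F) →ₗ[F] F × F := φ.prod (φ.comp (Matrix.toLin' k))
    have hker : LinearMap.ker L ≠ ⊥ := by
      apply LinearMap.ker_ne_bot_of_finrank_lt
      rw [Module.finrank_prod, Module.finrank_self, Module.finrank_fintype_fun_eq_card]
      omega
    obtain ⟨x, hxL, hx0⟩ := Submodule.exists_mem_ne_zero_of_ne_bot hker
    have hxL' : L x = 0 := hxL
    have hx1 : φ x = 0 := congrArg Prod.fst hxL'
    have hx2 : φ (k *ᵥ x) = 0 := by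
      have := congrArg Prod.snd hxL'
      simpa [L] using this
    have h3 : (k - k') *ᵥ x = 0 := by
      have e1 : (k' * (g : Matrix ι ι F)) *ᵥ x = k' *ᵥ x := by
        rw [← Matrix.mulVec_mulVec, hgx, hx1, zero_smul, add_zero]
      have e2 : ((g : Matrix ι ι F) * k) *ᵥ x = k *ᵥ x := by
        rw [← Matrix.mulVec_mulVec, hgx, hx2, zero_smul, add_zero]
      rw [Matrix.sub_mulVec, ← e1, ← e2, hrel, sub_self]
    have hkk : k - k' = 0 := field_eq_zero_of_mulVec K hK (K.sub_mem hk hk'K) hx0 h3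
    rw [← hrel, ← sub_eq_zero.1 hkk]
  obtain ⟨x0, hx0⟩ : ∃ x, φ x ≠ 0 := by
    by_contra hcon
    push Not at hcon
    exact hφ (LinearMap.ext hcon)
  have hscal : ∀ k ∈ K, ∃ c : F, k = algebraMap F (Matrix ι ι F) c := by
    intro k hk
    have h1 : ((g : Matrix ι ι F) * k) *ᵥ x0 = (k * (g : Matrix ι ι F)) *ᵥ x0 := by
      rw [hcomm k hk]
    rw [← Matrix.mulVec_mulVec, ← Matrix.mulVec_mulVec, hgx, hgx, Matrix.mulVec_add,
      Matrix.mulVec_smul] at h1
    have h4 : φ (k *ᵥ x0) • a = φ x0 • (k *ᵥ a) := add_left_cancel h1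
    refine ⟨(φ x0)⁻¹ * φ (k *ᵥ x0), ?_⟩
    have h5 : k *ᵥ a = ((φ x0)⁻¹ * φ (k *ᵥ x0)) • a := by
      rw [mul_smul, h4, smul_smul, inv_mul_cancel₀ hx0, one_smul]
    have h6 : (k - algebraMap F (Matrix ι ι F) ((φ x0)⁻¹ * φ (k *ᵥ x0))) *ᵥ a = 0 := by
      rw [Matrix.sub_mulVec, h5, Algebra.algebraMap_eq_smul_one, Matrix.smul_mulVec,
        Matrix.one_mulVec, sub_self]
    exact sub_eq_zero.1 (field_eq_zero_of_mulVec K hK (K.sub_mem hk (K.algebraMap_mem _)) ha h6)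
  have hbot : K = ⊥ := by
    rw [eq_bot_iff]
    intro k hk
    obtain ⟨c, hc⟩ := hscal k hk
    rw [Algebra.mem_bot]
    exact ⟨c, hc.symm⟩
  have h1 := hK.finrank_eq
  rw [hbot, Subalgebra.finrank_bot] at h1
  omega

/-- N3 -/
theorem sp_not_le_field (hm : 2 ≤ m) {r : ℕ} (hr : 2 ≤ r)
    (K : Subalgebra F (Matrix (Fin m ⊕ Fin m) (Fin m ⊕ Fin m) F)) (hK : IsFieldSubalgebra r K) :
    ¬ spGL m F ≤ subalgebraNormalizer K := by
  obtain ⟨v, hv⟩ := exists_vec_ne_zero (F := F) (m := m) (by omega)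
  exact not_le_of_tvG v 1 (tv_not_mem_field' (by simp; omega) hr K hK _ (isTv_tvG hv one_ne_zero))

end Cfsg.Agent.Lib.Helper72.SpRow
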