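import Cfsg.Agent.Lib.Helper72.SpRow.N3
import Cfsg.Agent.Lib.Helper72.SURows.TVd

set_option autoImplicit false

namespace Cfsg.Agent.Lib.Helper72.SpRow

open Cfsg Cfsg.Geo Matrix Cfsg.Agent.Lib.Helper94.SpRow Cfsg.Agent.Lib.Helper5.SUAsch
  Cfsg.Agent.Lib.Helper72.SURows
open scoped MatrixGroups

variable {F : Type*} [Field F] {m : ℕ}

/-- N4 -/
theorem sp_not_le_tensor {a b : ℕ} (ha : 2 ≤ a) (hb : 2 ≤ b)
    (e : (Fin m ⊕ Fin m) ≃ Fin a × Fin b) (P : GL (Fin m ⊕ Fin m) F) :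
    ¬ spGL m F ≤ tensorProductSubgroup a b e P := by
  have hm : 1 ≤ m := by
    have h := Fintype.card_congr e
    simp at h
    by_contra h0
    have : m = 0 := by omega
    subst this
    have : 0 < a * b := Nat.mul_pos (by omega) (by omega)
    omega
  obtain ⟨v, hv⟩ := exists_vec_ne_zero (F := F) (m := m) hm
  exact not_le_of_tvG v 1 (tv_not_mem_tensor ha hb e P _ (isTv_tvG hv one_ne_zero))

end Cfsg.Agent.Lib.Helper72.SpRow
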